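import Mathlib
import Cfsg.Agent.Lib.Helper6.OA.Diag

set_option autoImplicit false
set_option linter.unusedSectionVars false

namespace Cfsg.Agent.Lib.Helper6.GS

open Matrix QuadraticMap Module
open Cfsg.Agent.Lib.Helper18 Cfsg.Agent.Lib.Helper18.OmegaCenter Cfsg.Agent.Lib.Helper6.OA

variable {ι : Type} [Fintype ι] [DecidableEq ι] {F : Type*} [Field F] [Fintype F]
variable {Q : QuadraticForm F (ι → F)} {k : ℕ} {ν : Fˣ} {D : ↥(GO ⇑Q)}

theorem conj_sgn (S : Setup Q k ν D) (a : ↥(GO ⇑Q)) (ha : S.muBar a = -1)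
    (h : ↥(Cfsg.isometryGroup F ⇑Q)) :
    ∃ h' : ↥(Cfsg.isometryGroup F ⇑Q), a * iO Q h = iO Q h' * a ∧
      sgn ⇑Q 1 h' = sgn ⇑Q ν h ∧ sgn ⇑Q ν h' = sgn ⇑Q 1 h := by
  obtain ⟨l, w, rfl | rfl⟩ := S.cases a
  · rw [map_mul, S.muBar_sc, S.muBar_iO] at ha
    exact absurd ha (by decide)
  · obtain ⟨h', e, s1, s2⟩ := S.exists_conj_D (w * h * w⁻¹)
    refine ⟨h', ?_, ?_, ?_⟩
    · calc sc Q l * D * iO Q w * iO Q h = sc Q l * (D * iO Q (w * h * w⁻¹)) * iO Q w := by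
            rw [map_mul, map_mul, map_inv]; group
        _ = sc Q l * (iO Q h' * D) * iO Q w := by rw [e]
        _ = (sc Q l * iO Q h') * D * iO Q w := by group
        _ = (iO Q h' * sc Q l) * D * iO Q w := by rw [sc_comm]
        _ = _ := by group
    · rw [s1, map_mul, map_mul, map_inv, mul_comm, ← mul_assoc, inv_mul_cancel, one_mul]
    · rw [s2, map_mul, map_mul, map_inv, mul_comm, ← mul_assoc, inv_mul_cancel, one_mul]

theorem comm_neg (S : Setup Q k ν D) (a : ↥(GO ⇑Q)) (ha : S.muBar a = -1)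
    (h : ↥(Cfsg.isometryGroup F ⇑Q)) (hh : dh Q h = -1) (l : Fˣ)
    (hc : a * iO Q h = sc Q l * (iO Q h * a)) : l = -1 ∧ negIso Q ∉ Cfsg.Omega F ⇑Q := by
  obtain ⟨h', e, s1, -⟩ := conj_sgn S a ha h
  have e1 : iO Q h' = sc Q l * iO Q h := by
    have : iO Q h' * a = (sc Q l * iO Q h) * a := by rw [← e, hc, mul_assoc]
    exact mul_right_cancel this
  have hs : sgn ⇑Q 1 h * sgn ⇑Q ν h = -1 := by
    rcases S.det_sgn h with ⟨x, -⟩ | ⟨-, x⟩
    · rw [hh] at x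
      exact absurd x S.neg_one_ne_one
    · exact x
  have hne : sgn ⇑Q 1 h' ≠ sgn ⇑Q 1 h := by
    rw [s1]
    intro hq
    rw [hq] at hs
    rcases Int.units_eq_one_or (sgn ⇑Q 1 h) with y | y <;> rw [y] at hs <;> simp at hs
  have h1 := congrArg (mu Q S.hv) e1
  rw [map_mul, mu_iO, mu_iO, mu_sc, mul_one] at h1
  have h2 := congrArg Units.val h1
  rw [Units.val_mul, Units.val_one, eq_comm, mul_self_eq_one_iff] at h2
  rcases h2 with h2 | h2
  · have : l = 1 := Units.ext h2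
    rw [this, map_one, one_mul] at e1
    rw [S.iO_injective e1] at hne
    exact absurd rfl hne
  · have hl : l = -1 := Units.ext (by rw [h2]; simp)
    refine ⟨hl, fun hneg => ?_⟩
    rw [hl, ← S.iO_negIso, ← map_mul] at e1
    rw [S.iO_injective e1, map_mul, ((S.mem_Omega_iff' _).1 hneg).1, one_mul] at hne
    exact absurd rfl hne

theorem iso_of_muBar (S : Setup Q k ν D) (g : ↥(GO ⇑Q)) (hmu : S.muBar g = 1)
    (hg : S.eps g = -1) :
    ∃ (κ : Fˣ) (h : ↥(Cfsg.isometryGroup F ⇑Q)), g = sc Q κ * iO Q h ∧ dh Q h = -1 := by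
  obtain ⟨κ, hκ⟩ := (S.muBar_eq_one_iff g).1 hmu
  obtain ⟨h, hh⟩ := exists_sc_mul_iO Q S.hv g κ hκ
  refine ⟨κ, h, hh, ?_⟩
  rw [hh, map_mul, S.eps_sc, one_mul] at hg
  rcases S.det_sgn h with ⟨a, -⟩ | ⟨a, -⟩
  · rw [(S.eps_iO_eq_one_iff h).2 a] at hg
    exact absurd hg (by decide)
  · exact a

theorem cancel_sc (a : ↥(GO ⇑Q)) (κ l : Fˣ) (x : ↥(GO ⇑Q))
    (hl : a * (sc Q κ * x) = sc Q l * (sc Q κ * x * a)) : a * x = sc Q l * (x * a) := by
  have e1 : sc Q κ * (a * x) = sc Q κ * (sc Q l * (x * a)) := by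
    calc sc Q κ * (a * x) = a * (sc Q κ * x) := by
          rw [← mul_assoc, sc_comm, mul_assoc]
      _ = sc Q l * (sc Q κ * x * a) := hl
      _ = _ := by
          rw [← mul_assoc, ← mul_assoc, ← mul_assoc, ← mul_assoc, ← map_mul, ← map_mul,
            mul_comm l κ]
  exact mul_left_cancel e1

theorem muBar_of_comm (S : Setup Q k ν D) (hneg : negIso Q ∈ Cfsg.Omega F ⇑Q) (a g : ↥(GO ⇑Q))
    (hg : S.eps g = -1) (ha : S.eps a = 1)
    (hc : cG ⇑Q a * cG ⇑Q g = cG ⇑Q g * cG ⇑Q a) : S.muBar a = 1 := by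
  rcases Int.units_eq_one_or (S.muBar a) with hma | hma
  · exact hma
  exfalso
  rw [← map_mul, ← map_mul] at hc
  obtain ⟨l, hl⟩ := (S.cG_eq_iff' _ _).1 hc
  rcases Int.units_eq_one_or (S.muBar g) with hmu | hmu
  · obtain ⟨κ, h, rfl, hd⟩ := iso_of_muBar S g hmu hg
    exact (comm_neg S a hma h hd l (cancel_sc a κ l _ hl)).2 hneg
  · obtain ⟨κ, h, hb, hd⟩ := iso_of_muBar S (a * g) (by rw [map_mul, hma, hmu]; simp)
      (by rw [map_mul, ha, hg]; simp)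
    have e : g * (sc Q κ * iO Q h) = sc Q l⁻¹ * (sc Q κ * iO Q h * g) := by
      rw [← hb, map_inv, eq_inv_mul_iff_mul_eq]
      calc sc Q l * (g * (a * g)) = (sc Q l * (g * a)) * g := by group
        _ = a * g * g := by rw [← hl]
    exact (comm_neg S g hmu h hd l⁻¹ (cancel_sc g κ l⁻¹ _ e)).2 hneg

end Cfsg.Agent.Lib.Helper6.GS
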