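import Mathlib
import Cfsg.Agent.Lib.Helper18.AutPSL.Split

set_option autoImplicit false

namespace Cfsg.Agent.Lib.Helper6.GS

theorem count_two {X : Type*} [Group X] (H K : Subgroup X) [K.Normal] (hKH : K ≤ H) (x : X)
    (h2 : K.relIndex H = 2) :
    (Cfsg.splitClassCount H K x = 1 ∨ Cfsg.splitClassCount H K x = 2) ∧
    (H ⊓ Subgroup.centralizer {x} ≤ K → Cfsg.splitClassCount H K x = 2) := by
  have hcount := Cfsg.Agent.Lib.Helper18.AutPSL.splitClassCount_eq H.subtype
    (QuotientGroup.mk' (K.subgroupOf H)) (QuotientGroup.mk'_surjective _) x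
  rw [Subgroup.range_subtype, QuotientGroup.ker_mk', Subgroup.subgroupOf_map_subtype,
    inf_eq_left.2 hKH, Subgroup.index_map, QuotientGroup.ker_mk',
    MonoidHom.range_eq_top.2 (QuotientGroup.mk'_surjective _), Subgroup.index_top, mul_one]
    at hcount
  set C' : Subgroup ↥H := (Subgroup.centralizer {x}).comap H.subtype with hC'
  set K' : Subgroup ↥H := K.subgroupOf H with hK'
  have hK2 : K'.index = 2 := h2
  have hmul : K'.relIndex (C' ⊔ K') * (C' ⊔ K').index = 2 := by
    rw [Subgroup.relIndex_mul_index le_sup_right, hK2]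
  rw [hcount]
  constructor
  · generalize K'.relIndex (C' ⊔ K') = a at hmul
    generalize (C' ⊔ K').index = b at hmul ⊢
    have hb : b ∣ 2 := ⟨a, by rw [← hmul, mul_comm]⟩
    have hb4 : b ≤ 2 := Nat.le_of_dvd (by norm_num) hb
    interval_cases b
    · omega
    · left; rfl
    · right; rfl
  · intro h
    have : C' ≤ K' := by
      intro y hy
      exact h ⟨y.2, hy⟩
    rw [sup_eq_right.2 this, hK2]

open Polynomial in
theorem charpoly_mul_neg {n : Type*} [Fintype n] [DecidableEq n] {F : Type*} [Field F]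
    (M : Matrix n n F) (c : F) (hM : M * M = c • (1 : Matrix n n F)) :
    M.charpoly * (-M).charpoly = (X ^ 2 - C c) ^ (Fintype.card n) := by
  unfold Matrix.charpoly
  rw [← Matrix.det_mul]
  have : Matrix.charmatrix M * Matrix.charmatrix (-M) =
      (X ^ 2 - C c : F[X]) • (1 : Matrix n n F[X]) := by
    unfold Matrix.charmatrix
    have h1 : (C.mapMatrix (-M) : Matrix n n F[X]) = - C.mapMatrix M := by
      rw [map_neg]
    rw [h1, sub_neg_eq_add]
    have h2 : (C.mapMatrix M : Matrix n n F[X]) * C.mapMatrix M = C c • 1 := by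
      rw [← map_mul, hM]
      ext i j
      simp [Matrix.one_apply]
      split_ifs <;> simp
    have h3 : Commute (Matrix.scalar n (X : F[X])) (C.mapMatrix M : Matrix n n F[X]) :=
      Matrix.scalar_commute _ (fun r => Commute.all _ _) _
    rw [← h3.mul_self_sub_mul_self_eq', h2]
    ext i j
    simp [Matrix.one_apply, Matrix.scalar_apply, Matrix.diagonal_mul_diagonal, Matrix.diagonal_apply]
    split_ifs <;> simp [pow_two]
  rw [this, Matrix.det_smul, Matrix.det_one, mul_one]

open Polynomial in
theorem det_of_charpoly_eq {n : Type*} [Fintype n] [DecidableEq n] {F : Type*} [Field F] (k : ℕ)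
    (hn : Fintype.card n = 2 * k) (M : Matrix n n F) (c : F)
    (h : M.charpoly = (X ^ 2 - C c) ^ k) : M.det = (-c) ^ k := by
  rw [Matrix.det_eq_sign_charpoly_coeff, hn, pow_mul, h, coeff_zero_eq_eval_zero]
  simp

open Polynomial in
theorem det_of_charpoly {n : Type*} [Fintype n] [DecidableEq n] {F : Type*} [Field F]
    (h2 : (2 : F) ≠ 0) (k : ℕ) (hn : Fintype.card n = 2 * k)
    (M : Matrix n n F) (c : F) (hM : M * M = c • (1 : Matrix n n F))
    (hch : (-M).charpoly = M.charpoly) : M.det = (-c) ^ k := by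
  apply det_of_charpoly_eq k hn
  have h1 := charpoly_mul_neg M c hM
  rw [hch, hn, mul_comm 2 k, pow_mul, ← pow_two, sq_eq_sq_iff_eq_or_eq_neg] at h1
  rcases h1 with h1 | h1
  · exact h1
  · exfalso
    have hm1 : M.charpoly.Monic := Matrix.charpoly_monic M
    have hm2 : ((X ^ 2 - C c : F[X]) ^ k).Monic := (monic_X_pow_sub_C c (by norm_num)).pow k
    have h3 := congrArg Polynomial.leadingCoeff h1
    rw [leadingCoeff_neg, hm1.leadingCoeff, hm2.leadingCoeff] at h3
    apply h2
    linear_combination h3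

open Polynomial in
theorem det_of_sq {n : Type*} [Fintype n] [DecidableEq n] {F : Type*} [Field F] (k : ℕ)
    (hn : Fintype.card n = 2 * k) (G : Matrix n n F) (c : F) (hc : ¬ IsSquare c)
    (hG : G * G = c • (1 : Matrix n n F)) : G.det = (-c) ^ k := by
  apply det_of_charpoly_eq k hn
  have h1 := charpoly_mul_neg G c hG
  have hirr : Irreducible (X ^ 2 - C c : F[X]) := by
    have hd : (X ^ 2 - C c : F[X]).natDegree = 2 := natDegree_X_pow_sub_C
    rw [Polynomial.irreducible_iff_roots_eq_zero_of_degree_le_three (by rw [hd]) (by rw [hd]; norm_num)]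
    rw [Multiset.eq_zero_iff_forall_notMem]
    intro a ha
    rw [mem_roots (monic_X_pow_sub_C c (by norm_num)).ne_zero] at ha
    apply hc
    refine ⟨a, ?_⟩
    have : a ^ 2 - c = 0 := by simpa [IsRoot] using ha
    linear_combination -this
  have hdvd : G.charpoly ∣ (X ^ 2 - C c : F[X]) ^ (Fintype.card n) := ⟨_, h1.symm⟩
  obtain ⟨i, -, hi⟩ := (dvd_prime_pow hirr.prime _).1 hdvd
  have hm2 : ∀ j, ((X ^ 2 - C c : F[X]) ^ j).Monic := fun j =>
    (monic_X_pow_sub_C c (by norm_num)).pow j
  have he := eq_of_monic_of_associated (Matrix.charpoly_monic G) (hm2 i) hi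
  have hdeg := congrArg natDegree he
  rw [Matrix.charpoly_natDegree_eq_dim, hn, natDegree_pow, natDegree_X_pow_sub_C] at hdeg
  have : i = k := by omega
  rw [he, this]

end Cfsg.Agent.Lib.Helper6.GS
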