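import Mathlib
import Cfsg.Agent.Lib.Helper6.OA.Diag
import Cfsg.Agent.Lib.Helper6.GS.Pure

set_option autoImplicit false
set_option linter.unusedSectionVars false

namespace Cfsg.Agent.Lib.Helper6.GS

open Matrix QuadraticMap Module
open Cfsg.Agent.Lib.Helper18 Cfsg.Agent.Lib.Helper18.OmegaCenter Cfsg.Agent.Lib.Helper6.OA

variable {ι : Type} [Fintype ι] [DecidableEq ι] {F : Type*} [Field F] [Fintype F]
variable {Q : QuadraticForm F (ι → F)} {k : ℕ} {ν : Fˣ} {D : ↥(GO ⇑Q)}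

theorem refl_smul (S : Setup Q k ν D) (c : F) (hc : c ≠ 0) (v : ι → F) :
    refl Q (c • v) = refl Q v := by
  apply ext_act
  intro x
  rw [act_refl, act_refl, QuadraticMap.map_smul, polar_smul_left, smul_smul]
  congr 2
  simp only [smul_eq_mul]
  by_cases hv : Q v = 0
  · simp [hv]
  · field_simp

theorem refl_comm (S : Setup Q k ν D) (u v : ι → F) (huv : polar ⇑Q u v = 0) :
    refl Q u * refl Q v = refl Q v * refl Q u := by
  have hvu : polar ⇑Q v u = 0 := by rw [polar_comm]; exact huv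
  apply ext_act
  intro x
  rw [act_mul, act_mul, act_refl, act_refl, act_refl, act_refl, polar_sub_right, polar_sub_right,
    polar_smul_right, polar_smul_right, huv, hvu]
  simp only [smul_eq_mul, mul_zero, sub_zero]
  abel

theorem sgn_two (S : Setup Q k ν D) (u v : ι → F) (huv : ¬ IsSquare (Q u * Q v)) :
    dh Q (refl Q u * refl Q v) = 1 ∧ sgn ⇑Q 1 (refl Q u * refl Q v) = -1 := by
  have hu0 : Q u ≠ 0 := by
    intro h
    apply huv
    rw [h, zero_mul]
    exact IsSquare.zero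
  have hv0 : Q v ≠ 0 := by
    intro h
    apply huv
    rw [h, mul_zero]
    exact IsSquare.zero
  refine ⟨by rw [map_mul, S.dh_refl hu0, S.dh_refl hv0]; simp, ?_⟩
  rcases sq_or_nonsq S.h2 S.nsq hu0 with ⟨s, hs⟩ | ⟨s, hs⟩ <;>
    rcases sq_or_nonsq S.h2 S.nsq hv0 with ⟨t, ht⟩ | ⟨t, ht⟩
  · exact absurd ⟨s * t, by rw [hs, ht]; ring⟩ huv
  · have hs0 : s ≠ 0 := by rintro rfl; exact hu0 (by rw [hs]; simp)
    have ht0 : t ≠ 0 := by rintro rfl; exact hv0 (by rw [ht]; simp)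
    rw [map_mul, (sgn_pair_refl_sq Q S.h2 S.nsq hs0 hs).1, (sgn_pair_refl_nonsq Q S.h2 S.nsq ht0 ht).1]
    simp
  · have hs0 : s ≠ 0 := by rintro rfl; exact hu0 (by rw [hs]; simp)
    have ht0 : t ≠ 0 := by rintro rfl; exact hv0 (by rw [ht]; simp)
    rw [map_mul, (sgn_pair_refl_nonsq Q S.h2 S.nsq hs0 hs).1, (sgn_pair_refl_sq Q S.h2 S.nsq ht0 ht).1]
    simp
  · exact absurd ⟨ν * s * t, by rw [hs, ht]; ring⟩ huv

theorem not_isSquare_mu (S : Setup Q k ν D) (g : ↥(GO ⇑Q)) (hmu : S.muBar g = -1) :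
    ¬ IsSquare ((mu Q S.hv g : Fˣ) : F) := by
  rintro ⟨r, hr⟩
  have hr0 : r ≠ 0 := by
    rintro rfl
    exact (mu Q S.hv g).ne_zero (by rw [hr]; simp)
  have : S.muBar g = 1 := (S.muBar_eq_one_iff g).2 ⟨Units.mk0 r hr0, Units.ext hr⟩
  rw [this] at hmu
  exact absurd hmu (by decide)

theorem swap_parity (S : Setup Q k ν D) (h : ↥(Cfsg.isometryGroup F ⇑Q)) (hh : h * h = 1)
    (hd : dh Q h = -1) (a : ↥(GO ⇑Q)) (hc : a * iO Q h = sc Q (-1) * (iO Q h * a)) : Odd k := by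
  have hM : mat h * mat h = (1 : F) • (1 : Matrix ι ι F) := by
    have := congrArg mat hh
    rw [one_smul]
    simpa [mat] using this
  have hA : (a.1 : Matrix ι ι F) * mat h = - (mat h * (a.1 : Matrix ι ι F)) := by
    have := congrArg (fun x : ↥(GO ⇑Q) => (x.1 : Matrix ι ι F)) hc
    simp only [coe_mul', sc_coe, iO_coe] at this
    rw [this]
    simp
  have hch : (-(mat h)).charpoly = (mat h).charpoly := by
    have e : -(mat h) = (a.1 : Matrix ι ι F) * mat h * ((a.1⁻¹ : GL ι F) : Matrix ι ι F) := by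
      rw [hA, Matrix.neg_mul, Matrix.mul_assoc, ← Units.val_mul, mul_inv_cancel, Units.val_one,
        Matrix.mul_one]
    rw [e, Matrix.coe_units_inv]
    exact Matrix.charpoly_units_conj a.1 (mat h)
  have hdet := det_of_charpoly S.h2 k S.dim (mat h) 1 hM hch
  rw [← dh_coe, hd] at hdet
  rcases Nat.even_or_odd k with hk | hk
  · rw [hk.neg_one_pow] at hdet
    exfalso
    apply S.h2
    simp only [Units.val_neg, Units.val_one] at hdet
    linear_combination -hdet
  · exact hk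

theorem eps_of_sq (S : Setup Q k ν D) (hk : Even k) (g : ↥(GO ⇑Q)) (hmu : S.muBar g = -1)
    (hsq : g * g = sc Q (mu Q S.hv g)) : S.eps g = 1 := by
  have hG : (g.1 : Matrix ι ι F) * (g.1 : Matrix ι ι F) =
      ((mu Q S.hv g : Fˣ) : F) • (1 : Matrix ι ι F) := by
    rw [← coe_mul', hsq, sc_coe]
  have hdet := det_of_sq k S.dim _ _ (not_isSquare_mu S g hmu) hG
  rw [hk.neg_pow] at hdet
  rw [S.eps_eq_one_iff]
  show GeneralLinearGroup.det g.1 * ((mu Q S.hv g)⁻¹) ^ k = 1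
  apply Units.ext
  rw [Units.val_mul, GeneralLinearGroup.val_det_apply, hdet, ← Units.val_pow_eq_pow_val,
    ← Units.val_mul, inv_pow, mul_inv_cancel]

end Cfsg.Agent.Lib.Helper6.GS
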