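import Mathlib
import Cfsg.Agent.Lib.Helper6.GS.Refl

set_option autoImplicit false
set_option linter.unusedSectionVars false

namespace Cfsg.Agent.Lib.Helper6.GS

open Matrix QuadraticMap Module
open Cfsg.Agent.Lib.Helper18 Cfsg.Agent.Lib.Helper18.OmegaCenter Cfsg.Agent.Lib.Helper6.OA

variable {ι : Type} [Fintype ι] [DecidableEq ι] {F : Type*} [Field F] [Fintype F]
variable {Q : QuadraticForm F (ι → F)} {k : ℕ} {ν : Fˣ} {D : ↥(GO ⇑Q)}

theorem caseA_of (S : Setup Q k ν D) (h : ↥(Cfsg.isometryGroup F ⇑Q))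
    (hp : ∃ (u w : ι → F) (c : F), mat h *ᵥ u = c • u ∧ mat h *ᵥ w = c • w ∧ c ≠ 0 ∧ Q u ≠ 0 ∧
      Q w ≠ 0 ∧ polar ⇑Q u w = 0) :
    ∃ t : ↥(Cfsg.isometryGroup F ⇑Q), dh Q t = 1 ∧ sgn ⇑Q 1 t = -1 ∧ t * h = h * t := by
  obtain ⟨u, w, c, hu, hw, hc, hQu, hQw, huw⟩ := hp
  obtain ⟨x, y, hxy⟩ := exists_binary_eq S.h2 hQu hQw ((ν : F) * Q u)
  set b := x • u + y • w with hb
  have hQb : Q b = ν * Q u := by
    rw [hb, QuadraticMap.map_add (⇑Q), QuadraticMap.map_smul, QuadraticMap.map_smul,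
      polar_smul_left, polar_smul_right, huw, ← hxy]
    simp only [smul_eq_mul]
    ring
  have hHb : mat h *ᵥ b = c • b := by
    rw [hb, Matrix.mulVec_add, Matrix.mulVec_smul, Matrix.mulVec_smul, hu, hw, smul_add,
      smul_comm x c, smul_comm y c]
  have hns : ¬ IsSquare (Q u * Q b) := by
    rintro ⟨r, hr⟩
    apply S.nsq
    refine ⟨r / Q u, ?_⟩
    rw [hQb] at hr
    field_simp
    linear_combination hr
  obtain ⟨t1, t2⟩ := sgn_two S u b hns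
  refine ⟨refl Q u * refl Q b, t1, t2, ?_⟩
  apply S.iO_injective
  have e1 : iO Q h * iO Q (refl Q u) = iO Q (refl Q u) * iO Q h := by
    rw [S.sim_refl (iO Q h) u, iO_coe, hu, refl_smul S c hc]
  have e2 : iO Q h * iO Q (refl Q b) = iO Q (refl Q b) * iO Q h := by
    rw [S.sim_refl (iO Q h) b, iO_coe, hHb, refl_smul S c hc]
  rw [map_mul, map_mul, map_mul, map_mul, mul_assoc, ← e2, ← mul_assoc, ← e1, mul_assoc]

theorem caseB_of (S : Setup Q k ν D) (g : ↥(GO ⇑Q)) (l : Fˣ) (hsq : g * g = sc Q l)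
    (hmu : S.muBar g = -1)
    (hp : ∃ a : ι → F, Q a ≠ 0 ∧ polar ⇑Q a ((g.1 : Matrix ι ι F) *ᵥ a) = 0) :
    ∃ t : ↥(Cfsg.isometryGroup F ⇑Q), dh Q t = 1 ∧ sgn ⇑Q 1 t = -1 ∧ iO Q t * g = g * iO Q t := by
  obtain ⟨a, hQa, hpa⟩ := hp
  set b := (g.1 : Matrix ι ι F) *ᵥ a with hb
  have hQb : Q b = (mu Q S.hv g : F) * Q a := mu_spec Q S.hv g a
  have hgb : (g.1 : Matrix ι ι F) *ᵥ b = (l : F) • a := by
    rw [hb, Matrix.mulVec_mulVec, ← coe_mul', hsq, sc_coe]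
    simp [Matrix.smul_mulVec]
  have hns : ¬ IsSquare (Q a * Q b) := by
    rintro ⟨r, hr⟩
    apply not_isSquare_mu S g hmu
    refine ⟨r / Q a, ?_⟩
    rw [hQb] at hr
    field_simp
    linear_combination hr
  obtain ⟨t1, t2⟩ := sgn_two S a b hns
  refine ⟨refl Q a * refl Q b, t1, t2, ?_⟩
  have e1 : g * iO Q (refl Q a) = iO Q (refl Q b) * g := S.sim_refl g a
  have e2 : g * iO Q (refl Q b) = iO Q (refl Q a) * g := by
    rw [S.sim_refl g b, hgb, refl_smul S _ l.ne_zero]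
  rw [refl_comm S a b hpa, map_mul, mul_assoc, ← e2, ← mul_assoc, ← e1, mul_assoc, ← map_mul,
    ← map_mul, refl_comm S a b hpa]

end Cfsg.Agent.Lib.Helper6.GS
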