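import Mathlib
import Cfsg.Agent.Lib.Helper6.GS.B1
import Cfsg.Agent.Lib.Helper6.GS.Cases
import Cfsg.Agent.Lib.Helper59.GFG1
import Cfsg.Agent.Lib.Helper49.GSCC
import Cfsg.Agent.Lib.Helper49.GSPERP
import Cfsg.Agent.Lib.Helper49.GSEIG

set_option autoImplicit false
set_option linter.unusedSectionVars false

namespace Cfsg.Agent.Lib.Helper6.GS

open Matrix QuadraticMap Module
open Cfsg.Agent.Lib.Helper18 Cfsg.Agent.Lib.Helper18.OmegaCenter Cfsg.Agent.Lib.Helper6.OA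

variable {ι : Type} [Fintype ι] [DecidableEq ι] {F : Type*} [Field F] [Fintype F]
variable {Q : QuadraticForm F (ι → F)} {k : ℕ} {ν : Fˣ} {D : ↥(GO ⇑Q)}

theorem sc_injective (S : Setup Q k ν D) : Function.Injective (sc Q) := by
  intro a b hab
  have h := congrArg (fun x : ↥(GO ⇑Q) => (x.1 : Matrix ι ι F)) hab
  simp only [sc_coe] at h
  have : Nonempty ι := by
    rw [← Fintype.card_pos_iff]
    have := S.hd
    omega
  obtain ⟨i⟩ := this
  have h2 := congrFun (congrFun h i) i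
  simp only [Matrix.smul_apply, Matrix.one_apply_eq, smul_eq_mul, mul_one] at h2
  exact Units.ext h2

/-- a similarity with square multiplier whose square is a scalar -/
theorem decomp (S : Setup Q k ν D) (g : ↥(GO ⇑Q)) (hmu : S.muBar g = 1) (l : Fˣ)
    (hsq : g * g = sc Q l) :
    ∃ (κ : Fˣ) (h : ↥(Cfsg.isometryGroup F ⇑Q)), g = sc Q κ * iO Q h ∧
      mu Q S.hv g = κ * κ ∧
      ((h * h = 1 ∧ l = κ * κ) ∨ (h * h = negIso Q ∧ l = - (κ * κ))) := by
  obtain ⟨κ, hκ⟩ := (S.muBar_eq_one_iff g).1 hmu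
  obtain ⟨h, hh⟩ := exists_sc_mul_iO Q S.hv g κ hκ
  refine ⟨κ, h, hh, hκ, ?_⟩
  have e1 : g * g = sc Q (κ * κ) * iO Q (h * h) := by
    rw [hh, map_mul, map_mul]
    calc sc Q κ * iO Q h * (sc Q κ * iO Q h) = sc Q κ * (iO Q h * sc Q κ) * iO Q h := by group
      _ = sc Q κ * (sc Q κ * iO Q h) * iO Q h := by rw [← sc_comm]
      _ = _ := by group
  have e2 : iO Q (h * h) = sc Q (l * (κ * κ)⁻¹) := by
    rw [map_mul (sc Q), map_inv, ← hsq, e1]
    rw [sc_comm]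
    group
  have e3 := congrArg (mu Q S.hv) e2
  rw [mu_iO, mu_sc] at e3
  have e4 := congrArg Units.val e3
  rw [Units.val_mul, Units.val_one, eq_comm, mul_self_eq_one_iff] at e4
  rcases e4 with e4 | e4
  · left
    have e5 : l * (κ * κ)⁻¹ = 1 := Units.ext e4
    rw [e5, map_one, ← map_one (iO Q)] at e2
    exact ⟨S.iO_injective e2, by rw [← mul_inv_eq_one]; exact e5⟩
  · right
    have e5 : l * (κ * κ)⁻¹ = -1 := Units.ext (by rw [e4]; simp)
    rw [e5, ← S.iO_negIso] at e2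
    refine ⟨S.iO_injective e2, ?_⟩
    rw [mul_inv_eq_iff_eq_mul] at e5
    rw [e5]; simp

theorem dh_of_eps (S : Setup Q k ν D) (κ : Fˣ) (h : ↥(Cfsg.isometryGroup F ⇑Q))
    (hg : S.eps (sc Q κ * iO Q h) = -1) : dh Q h = -1 := by
  rw [map_mul, S.eps_sc, one_mul] at hg
  rcases S.det_sgn h with ⟨a, -⟩ | ⟨a, -⟩
  · rw [(S.eps_iO_eq_one_iff h).2 a] at hg
    exact absurd hg (by decide)
  · exact a

theorem exists_comm' (S : Setup Q k ν D) (g : ↥(GO ⇑Q)) (hg : S.eps g = -1) (l : Fˣ)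
    (hsq : g * g = sc Q l) :
    ∃ t : ↥(Cfsg.isometryGroup F ⇑Q), dh Q t = 1 ∧ sgn ⇑Q 1 t = -1 ∧ iO Q t * g = g * iO Q t := by
  rcases Int.units_eq_one_or (S.muBar g) with hmu | hmu
  · obtain ⟨κ, h, rfl, -, ⟨hh, -⟩ | ⟨hh, -⟩⟩ := decomp S g hmu l hsq
    · obtain ⟨t, t1, t2, t3⟩ := caseA_of S h (Cfsg.Agent.Lib.Helper49GS.exists_pair S h hh)
      refine ⟨t, t1, t2, ?_⟩
      rw [← mul_assoc, ← sc_comm, mul_assoc, mul_assoc, ← map_mul, ← map_mul, t3]
    · have h1 := dh_of_eps S κ h hg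
      rw [Cfsg.Agent.Lib.Helper49GS.caseC S h hh] at h1
      exact absurd h1.symm S.neg_one_ne_one
  · exact caseB_of S g l hsq hmu (Cfsg.Agent.Lib.Helper49GS.exists_perp S g l hsq hmu)

theorem muBar_of_comm_even' (S : Setup Q k ν D) (hk : Even k) (a g : ↥(GO ⇑Q))
    (hg : S.eps g = -1) (ha : S.eps a = 1) (hsq : g * g = sc Q (mu Q S.hv g))
    (hc : cG ⇑Q a * cG ⇑Q g = cG ⇑Q g * cG ⇑Q a) : S.muBar a = 1 := by
  rcases Int.units_eq_one_or (S.muBar a) with hma | hma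
  · exact hma
  exfalso
  rcases Int.units_eq_one_or (S.muBar g) with hmu | hmu
  · obtain ⟨κ, h, rfl, hκ, ⟨hh, -⟩ | ⟨-, hl⟩⟩ := decomp S g hmu _ hsq
    · have hd := dh_of_eps S κ h hg
      rw [← map_mul, ← map_mul] at hc
      obtain ⟨l, hl⟩ := (S.cG_eq_iff' _ _).1 hc
      have e : a * iO Q h = sc Q l * (iO Q h * a) := by
        have e1 : sc Q κ * (a * iO Q h) = sc Q κ * (sc Q l * (iO Q h * a)) := by
          calc sc Q κ * (a * iO Q h) = a * (sc Q κ * iO Q h) := by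
                rw [← mul_assoc, sc_comm, mul_assoc]
            _ = sc Q l * (sc Q κ * iO Q h * a) := hl
            _ = _ := by
                rw [← mul_assoc, ← mul_assoc, ← mul_assoc, ← mul_assoc, ← map_mul, ← map_mul,
                  mul_comm l κ]
        exact mul_left_cancel e1
      obtain ⟨rfl, -⟩ := comm_neg S a hma h hd l e
      exact (Nat.not_even_iff_odd.2 (swap_parity S h hh hd a e)) hk
    · rw [hκ] at hl
      have h3 := congrArg Units.val hl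
      rw [Units.val_neg] at h3
      have h4 : (2 : F) * ((κ * κ : Fˣ) : F) = 0 := by linear_combination h3
      rcases mul_eq_zero.1 h4 with h5 | h5
      · exact S.h2 h5
      · exact (κ * κ).ne_zero h5
  · rw [eps_of_sq S hk g hmu hsq] at hg
    exact absurd hg (by decide)

theorem main' (S : Setup Q k ν D) (g : ↥(GO ⇑Q)) (hg : S.eps g = -1)
    (h2 : cG ⇑Q g * cG ⇑Q g = 1) :
    (Cfsg.splitClassCount S.ID (Cfsg.Inn (Cfsg.POmega F ⇑Q)) (cG ⇑Q g) = 1 ∨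
      Cfsg.splitClassCount S.ID (Cfsg.Inn (Cfsg.POmega F ⇑Q)) (cG ⇑Q g) = 2) ∧
    (negIso Q ∈ Cfsg.Omega F ⇑Q →
      Cfsg.splitClassCount S.ID (Cfsg.Inn (Cfsg.POmega F ⇑Q)) (cG ⇑Q g) = 2) ∧
    (Even k → g * g = sc Q (mu Q S.hv g) →
      Cfsg.splitClassCount S.ID (Cfsg.Inn (Cfsg.POmega F ⇑Q)) (cG ⇑Q g) = 2) := by
  obtain ⟨l, hl⟩ : ∃ l : Fˣ, g * g = sc Q l := by
    rw [← map_mul, ← map_one (cG ⇑Q)] at h2
    obtain ⟨l, hl⟩ := (S.cG_eq_iff' _ _).1 h2
    exact ⟨l, by rw [hl, mul_one]⟩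
  by_cases hneg : negIso Q ∈ Cfsg.Omega F ⇑Q
  · have key : Cfsg.splitClassCount S.ID (Cfsg.Inn (Cfsg.POmega F ⇑Q)) (cG ⇑Q g) = 2 := by
      have hcl := Cfsg.Agent.Lib.Helper59.GF.count_lemma S.ID (Cfsg.Inn (Cfsg.POmega F ⇑Q))
        (S.muBar.ker.map (cG ⇑Q)) S.Inn_le_ID (cG ⇑Q g) (S.relIndex_Inn_ID hneg) ?_ ?_ ?_
      · apply hcl.2
        intro hle
        obtain ⟨t, t1, t2, t3⟩ := exists_comm' S g hg l hl
        have hmem : cG ⇑Q (iO Q t) ∈ S.ID ⊓ Subgroup.centralizer {cG ⇑Q g} := by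
          refine ⟨(S.cG_mem_ID_iff _).2 ((S.eps_iO_eq_one_iff t).2 t1), ?_⟩
          apply Subgroup.mem_centralizer_singleton_iff.2
          rw [← map_mul, ← map_mul, t3]
        have := hle hmem
        rw [S.N0_iff hneg, S.mem_Omega_iff', t2] at this
        exact absurd this.1 (by decide)
      · rw [Inn_eq]
        apply Subgroup.map_mono
        intro b hb
        obtain ⟨h, rfl, -⟩ := (mem_OmE' b).1 hb
        exact S.muBar_iO h
      · rintro _ ⟨⟨a, ha, rfl⟩, hc⟩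
        replace hc := Subgroup.mem_centralizer_singleton_iff.1 hc
        exact ⟨a, muBar_of_comm S hneg a g hg ha hc, rfl⟩
      · obtain ⟨b, hb⟩ := S.prod_surjective (-1, 1)
        have hg1 : S.muBar b = -1 := congrArg Prod.fst hb
        have hg2 : S.eps b = 1 := congrArg Prod.snd hb
        refine ⟨cG _ b, (S.cG_mem_ID_iff b).2 hg2, ?_⟩
        rintro ⟨c, hc, e⟩
        obtain ⟨l', rfl⟩ := (S.cG_eq_iff' _ _).1 e
        have hb' : S.muBar (sc _ l' * b) = 1 := hc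
        rw [map_mul, S.muBar_sc, one_mul, hg1] at hb'
        exact absurd hb' (by decide)
    exact ⟨Or.inr key, fun _ => key, fun _ _ => key⟩
  · have hct := count_two S.ID (Cfsg.Inn (Cfsg.POmega F ⇑Q)) S.Inn_le_ID (cG ⇑Q g)
      (S.relIndex_Inn_ID_of_not hneg)
    refine ⟨hct.1, fun h => absurd h hneg, fun hk hsq => hct.2 ?_⟩
    rintro _ ⟨⟨a, ha, rfl⟩, hc⟩
    replace hc := Subgroup.mem_centralizer_singleton_iff.1 hc
    have hma := muBar_of_comm_even' S hk a g hg ha hsq hc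
    rw [← S.pso_eq_Inn_of_not hneg, psoAut_eq]
    obtain ⟨b, hb, e⟩ := (S.N1_iff a).2 ⟨hma, ha⟩
    exact ⟨b, hb, e.symm⟩

end Cfsg.Agent.Lib.Helper6.GS
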