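import Mathlib
import Cfsg.Agent.Lib.Helper6.OA.InstDiagMinus
import Cfsg.Agent.Lib.Helper6.GS.Main
import Cfsg.Agent.Lib.Helper95.BalOM.ClsC
import Cfsg.Agent.Lib.Helper64.BalOMCLSA
import Cfsg.Agent.Lib.Helper49.GamO10

set_option autoImplicit false
set_option linter.unusedSectionVars false

namespace Cfsg.Agent.Lib.Helper6.GS

open Matrix QuadraticMap Module
open Cfsg.Agent.Lib.Helper18 Cfsg.Agent.Lib.Helper18.OmegaCenter Cfsg.Agent.Lib.Helper6.OA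
open Cfsg.Agent.Lib.Helper49

variable {F : Type*} [Field F] [Fintype F]

theorem minus_sq {m : ℕ} (a b : F)
    (hab : ∀ z₁ z₂ : F, z₁ ^ 2 + a * z₁ * z₂ + b * z₂ ^ 2 = 0 → z₁ = 0 ∧ z₂ = 0)
    {ν : Fˣ} {D : ↥(GO ⇑(minusQF m F a b))} (S : Setup (minusQF m F a b) (m + 1) ν D)
    (g : ↥(GO ⇑(minusQF m F a b))) (hg : S.eps g = -1) (l : Fˣ)
    (hsq : g * g = sc (minusQF m F a b) l) :
    g * g = sc (minusQF m F a b) (mu (minusQF m F a b) S.hv g) := by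
  have e1 := congrArg (mu (minusQF m F a b) S.hv) hsq
  rw [map_mul, mu_sc] at e1
  have e2 := congrArg Units.val e1
  rw [Units.val_mul, Units.val_mul, mul_self_eq_mul_self_iff] at e2
  rcases e2 with e2 | e2
  · rw [hsq, Units.ext e2]
  · exfalso
    have hP : Cfsg.PreservesSingularClassesMinus m a b
        (g.1 : Matrix ((Fin m ⊕ Fin m) ⊕ Fin 2) ((Fin m ⊕ Fin m) ⊕ Fin 2) F) := by
      apply Cfsg.Agent.Lib.Helper95.BalOM.preserves_of_sq_neg S.h2 a b hab g.1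
        (mu (minusQF m F a b) S.hv g : F) (mu (minusQF m F a b) S.hv g).ne_zero
      · intro v
        exact mu_spec _ S.hv g v
      · intro v
        rw [Cfsg.Agent.Lib.Helper95.BalOM.linOf_apply, Cfsg.Agent.Lib.Helper95.BalOM.linOf_apply,
          Matrix.mulVec_mulVec, ← coe_mul', hsq, sc_coe, e2]
        simp [Matrix.smul_mulVec]
    rw [preservesMinus_iff S hab, ← S.eps_eq_one_iff, hg] at hP
    exact absurd hP (by decide)

theorem minus_main (hodd : Odd (Fintype.card F)) {m : ℕ} (hm : 3 ≤ m) (a b : F)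
    (hab : ∀ z₁ z₂ : F, z₁ ^ 2 + a * z₁ * z₂ + b * z₂ ^ 2 = 0 → z₁ = 0 ∧ z₂ = 0)
    {ν : Fˣ} {D : ↥(GO ⇑(minusQF m F a b))} (S : Setup (minusQF m F a b) (m + 1) ν D)
    (hn : negIso (minusQF m F a b) ∈ Cfsg.Omega F ⇑(minusQF m F a b) ↔
      (Even m ∧ Fintype.card F % 4 = 3))
    (γ : MulAut (Cfsg.POmega F ⇑(minusQF m F a b)))
    (hγ1 : γ ∈ Cfsg.gammaPOmega F ⇑(minusQF m F a b)) (hγ2 : γ ∉ S.ID) (ho : orderOf γ = 2) :
    (Cfsg.splitClassCount S.ID (Cfsg.Inn (Cfsg.POmega F ⇑(minusQF m F a b))) γ = 1 ∨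
      Cfsg.splitClassCount S.ID (Cfsg.Inn (Cfsg.POmega F ⇑(minusQF m F a b))) γ = 2) ∧
    (¬ (Even m ∧ Fintype.card F % 4 = 1) →
      Cfsg.splitClassCount S.ID (Cfsg.Inn (Cfsg.POmega F ⇑(minusQF m F a b))) γ = 2) := by
  rw [gammaPOmega_eq_range] at hγ1
  obtain ⟨y, rfl⟩ := hγ1
  have hy2 : cGam ⇑(minusQF m F a b) y ^ 2 = 1 := by
    have := pow_orderOf_eq_one (cGam ⇑(minusQF m F a b) y)
    rwa [ho] at this
  have hσ : y.1.right = 1 := Cfsg.Agent.Lib.Helper64.BalOM.sigma_eq_one S.h2 hm a b hab y hy2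
  have hyr : y ∈ (goIncl ⇑(minusQF m F a b)).range := by
    rw [range_goIncl]; exact hσ
  obtain ⟨g, rfl⟩ := hyr
  rw [cGam_goIncl] at hy2 hγ2 ⊢
  have heps : S.eps g = -1 := by
    rcases Int.units_eq_one_or (S.eps g) with h | h
    · exact absurd ((S.cG_mem_ID_iff g).2 h) hγ2
    · exact h
  have hsq : cG ⇑(minusQF m F a b) g * cG ⇑(minusQF m F a b) g = 1 := by rw [← pow_two, hy2]
  obtain ⟨h1, h2, h3⟩ := main' S g heps hsq
  refine ⟨h1, fun hne => ?_⟩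
  obtain ⟨l, hl⟩ : ∃ l : Fˣ, g * g = sc (minusQF m F a b) l := by
    rw [← map_mul, ← map_one (cG ⇑(minusQF m F a b))] at hsq
    obtain ⟨l, hl⟩ := (S.cG_eq_iff' _ _).1 hsq
    exact ⟨l, by rw [hl, mul_one]⟩
  rcases Nat.even_or_odd m with hme | hmo
  · apply h2
    rw [hn]
    refine ⟨hme, ?_⟩
    have : Fintype.card F % 4 ≠ 1 := fun h => hne ⟨hme, h⟩
    rcases hodd with ⟨t, ht⟩
    omega
  · exact h3 hmo.add_one (minus_sq a b hab S g heps l hl)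

end Cfsg.Agent.Lib.Helper6.GS
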